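import Cfsg.Agent.SuzG2.Lines
import Cfsg.Agent.H29.CosetCert.SuzOrder.Cert

/-!
The point stabiliser of the presented group `Suz` is `G₂(4)`.
-/

set_option autoImplicit false
set_option maxRecDepth 100000
set_option Elab.async false

namespace CfsgLib.SuzG2

open H29.CosetCert CfsgLib.G2Four Cfsg.Lie Matrix

attribute [local irreducible] hi cl th vcode vidx pick

/-! ### The stabiliser side -/

open H29.CosetCert.SuzCert (cert H g)

/-- The presented group. -/
abbrev Suz : Type := Cfsg.Spor.Suz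

/-- A table point. -/
noncomputable def pr (h : Suz) (c : Fin 1782) : Fin 1782 := cert.ρ h c

theorem pr_mul (a b : Suz) (c : Fin 1782) : pr (a * b) c = pr a (pr b c) := by
  exact DFunLike.congr_fun (map_mul cert.ρ a b) c

theorem pr_one (c : Fin 1782) : pr 1 c = c := by
  exact DFunLike.congr_fun (map_one cert.ρ) c

theorem pr_word (w : List ℕ) (c : Fin 1782) : (pr (w.map g).prod c).val = runR SuzData.T w c.val :=
  Cert.prod_ρ_val cert w c

theorem memC_spec {q x : ℕ} : memC q x = true ↔ ∃ l < 5, cl q l = x := by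
  simp only [memC, Bool.or_eq_true, Nat.beq_eq]
  constructor
  · rintro ((((h | h) | h) | h) | h)
    exacts [⟨0, by norm_num, h⟩, ⟨1, by norm_num, h⟩, ⟨2, by norm_num, h⟩, ⟨3, by norm_num, h⟩, ⟨4, by norm_num, h⟩]
  · rintro ⟨l, hl, rfl⟩
    interval_cases l <;> simp

theorem cl_spec {q l : ℕ} (hq : q < 1365) (hl : l < 5) :
    cl q l < 1782 ∧ SuzData.orb1.testBit (cl q l) = true ∧ (∃ m < 5, th (cl q l) m = q) ∧ cl q 0 ≠ cl q 1 := by
  have h := allIn_get cl_ok hq
  simp only [Bool.and_eq_true, Bool.not_eq_true'] at h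
  have h2 := allIn_get h.1 hl
  simp only [Bool.and_eq_true, Bool.or_eq_true, Nat.blt_eq, Nat.beq_eq] at h2
  refine ⟨h2.1.1.1, h2.1.1.2, ?_, fun e => by rw [e, Nat.beq_refl] at h; exact Bool.noConfusion h.2⟩
  rcases h2.2 with (((e | e) | e) | e) | e
  exacts [⟨0, by norm_num, e⟩, ⟨1, by norm_num, e⟩, ⟨2, by norm_num, e⟩, ⟨3, by norm_num, e⟩, ⟨4, by norm_num, e⟩]

theorem th_spec {c l m : ℕ} (hc : c < 1782) (ho : SuzData.orb1.testBit c = true) (hl : l < 5) (hm : m < 5) :
    th c l < 1365 ∧ memC (th c l) c = true ∧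
      (l ≠ m → th c l ≠ th c m ∧ ∀ y, memC (th c l) y = true → memC (th c m) y = true → y = c) := by
  have h := allIn_get th_ok hc
  rw [ho, cond_true] at h
  have h2 := allIn_get h hl
  simp only [Bool.and_eq_true, Nat.blt_eq] at h2
  refine ⟨h2.1.1, h2.1.2, fun hne => ?_⟩
  have h3 := allIn_get h2.2 hm
  simp only [Bool.or_eq_true, Bool.and_eq_true, Nat.beq_eq, Bool.not_eq_true'] at h3
  obtain ⟨h4, h5⟩ := h3.resolve_left hne
  refine ⟨fun e => by rw [e, Nat.beq_refl] at h4; exact Bool.noConfusion h4, fun y hy1 hy2 => ?_⟩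
  obtain ⟨k, hk, rfl⟩ := memC_spec.1 hy1
  have h6 := allIn_get h5 hk
  simp only [Bool.or_eq_true, Nat.beq_eq, Bool.not_eq_true'] at h6
  rcases h6 with h6 | h6
  · exact h6
  · rw [hy2] at h6
    exact Bool.noConfusion h6

theorem line_unique {q : ℕ} (hq : q < 1365) {f : Fin 1782 → Fin 1782} (hf : Function.Injective f) {a b : Fin 1365}
    (ha : ∀ x : Fin 1782, memC q x = true → memC a (f x) = true)
    (hb : ∀ x : Fin 1782, memC q x = true → memC b (f x) = true) : a = b := by
  obtain ⟨c0, -, -, hne⟩ := cl_spec hq (show 0 < 5 by norm_num)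
  obtain ⟨c1, -, -, -⟩ := cl_spec hq (show 1 < 5 by norm_num)
  have m0 : memC q (cl q 0) = true := memC_spec.2 ⟨0, by norm_num, rfl⟩
  have m1 : memC q (cl q 1) = true := memC_spec.2 ⟨1, by norm_num, rfl⟩
  have a0 := ha ⟨_, c0⟩ m0
  have b0 := hb ⟨_, c0⟩ m0
  obtain ⟨k, hk, ek⟩ := memC_spec.1 a0
  obtain ⟨k', hk', ek'⟩ := memC_spec.1 b0
  obtain ⟨-, ho, ⟨l, hl, el⟩, -⟩ := cl_spec a.2 hk
  obtain ⟨-, -, ⟨m, hm, em⟩, -⟩ := cl_spec b.2 hk'
  rw [ek] at ho el
  rw [ek'] at em
  by_contra hab
  have hlm : l ≠ m := fun e => hab (Fin.ext (by rw [← el, ← em, e]))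
  obtain ⟨-, h⟩ := (th_spec (f ⟨_, c0⟩).2 ho hl hm).2.2 hlm
  rw [el, em] at h
  have := h _ (ha ⟨_, c1⟩ m1) (hb ⟨_, c1⟩ m1)
  exact hne (congrArg Fin.val (hf (Fin.ext this))).symm

/-- The lines are permuted. -/
def Perms (h : Suz) : Prop :=
  ∃ π : Equiv.Perm (Fin 1365), ∀ q : Fin 1365, ∀ x : Fin 1782, memC q x = true → memC (π q) (pr h x) = true

theorem gens_mem : H = Subgroup.closure {e | ∃ i < 6, g i = e} := by
  show Subgroup.closure _ = _
  congr 1
  ext e
  simp [gens_eq]
  constructor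
  · rintro (rfl | rfl | rfl | rfl | rfl | rfl)
    exacts [⟨0, by norm_num, rfl⟩, ⟨1, by norm_num, rfl⟩, ⟨2, by norm_num, rfl⟩, ⟨3, by norm_num, rfl⟩,
      ⟨4, by norm_num, rfl⟩, ⟨5, by norm_num, rfl⟩]
  · rintro ⟨i, hi, rfl⟩
    interval_cases i <;> simp

theorem hi_lt (i : Fin 6) (q : Fin 1365) : hi i q < 1365 := by
  have h := allIn_get2 (p := fun i q => Nat.blt (hi i q) 1365 &&
    allIn (fun l => memC (hi i q) (SuzData.T i (cl q l))) 0 5) img_ok i.2 q.2
  simp only [Bool.and_eq_true, Nat.blt_eq] at h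
  exact h.1

theorem hi_sq (i : Fin 6) (q : Fin 1365) : hi i (hi i q) = q :=
  Nat.eq_of_beq_eq_true (allIn_get2 (p := fun i q => Nat.beq (hi i (hi i q)) q) img_sq i.2 q.2)

/-- The permutation of a generator. -/
def hperm (i : Fin 6) : Equiv.Perm (Fin 1365) :=
  ⟨fun q => ⟨hi i q, hi_lt i q⟩, fun q => ⟨hi i q, hi_lt i q⟩,
    fun q => Fin.ext (hi_sq i q), fun q => Fin.ext (hi_sq i q)⟩

theorem hperm_val (i : Fin 6) (q : Fin 1365) : (hperm i q).val = hi i q := by
  simp only [hperm, Equiv.coe_fn_mk]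

theorem gen_maps (i : Fin 6) (q : Fin 1365) (x : Fin 1782) (hx : memC q x = true) :
    memC (hperm i q) (pr (g i) x) = true := by
  obtain ⟨l, hl, e⟩ := memC_spec.1 hx
  have h := allIn_get2 (p := fun i q => Nat.blt (hi i q) 1365 &&
    allIn (fun l => memC (hi i q) (SuzData.T i (cl q l))) 0 5) img_ok i.2 q.2
  simp only [Bool.and_eq_true] at h
  have h2 := allIn_get h.2 hl
  rw [e] at h2
  have h3 := pr_word [i.val] x
  simp only [List.map_cons, List.map_nil, List.prod_cons, List.prod_nil, mul_one] at h3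
  rw [h3]
  rw [hperm_val]
  rw [show runR SuzData.T [i.val] x.val = SuzData.T i.val x.val by rw [runR_cons]; rfl]
  exact h2

theorem perms_of_mem {h : Suz} (hh : h ∈ H) : Perms h := by
  haveI := H29.CosetCert.SuzOrd.finite_card.1
  rw [gens_mem, ← Subgroup.mem_toSubmonoid, Subgroup.closure_toSubmonoid_of_finite] at hh
  induction hh using Submonoid.closure_induction with
  | mem e he =>
    obtain ⟨i, hi, rfl⟩ := he
    exact ⟨hperm ⟨i, hi⟩, gen_maps ⟨i, hi⟩⟩
  | one => exact ⟨1, fun q x hx => by rw [pr_one]; exact hx⟩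
  | mul a b _ _ ha hb =>
    obtain ⟨π, hπ⟩ := ha
    obtain ⟨σ, hσ⟩ := hb
    exact ⟨π * σ, fun q x hx => by rw [pr_mul]; exact hπ _ _ (hσ q x hx)⟩

theorem pr_injective (h : Suz) : Function.Injective (pr h) := (cert.ρ h).injective

/-- The action of the stabiliser on the lines. -/
noncomputable def sigH : H →* Equiv.Perm (Fin 1365) :=
  MonoidHom.mk' (fun h => (perms_of_mem h.2).choose) fun a b => Equiv.ext fun q =>
    line_unique q.2 (pr_injective ((a * b : H) : Suz)) ((perms_of_mem (a * b).2).choose_spec q) fun x hx => by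
      rw [Subgroup.coe_mul, pr_mul]
      exact (perms_of_mem a.2).choose_spec _ _ ((perms_of_mem b.2).choose_spec q x hx)

theorem sigH_spec (h : H) (q : Fin 1365) (x : Fin 1782) (hx : memC q x = true) :
    memC (sigH h q) (pr h x) = true := (perms_of_mem h.2).choose_spec q x hx

theorem orb_maps {h : Suz} (hh : h ∈ H) (x : Fin 1782) :
    SuzData.orb1.testBit (pr h x).val = SuzData.orb1.testBit x.val := by
  have key : ∀ (h : Suz), h ∈ H → ∀ x : Fin 1782, SuzData.orb1.testBit x.val = true →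
      SuzData.orb1.testBit (pr h x).val = true := by
    intro h hh x hx
    obtain ⟨π, hπ⟩ := perms_of_mem hh
    obtain ⟨hl, hm, -⟩ := th_spec x.2 hx (show 0 < 5 by norm_num) (show 0 < 5 by norm_num)
    obtain ⟨k, hk, e⟩ := memC_spec.1 (hπ ⟨_, hl⟩ x hm)
    rw [← e]
    exact (cl_spec (π ⟨_, hl⟩).2 hk).2.1
  rw [Bool.eq_iff_iff]
  refine ⟨fun hx => ?_, key h hh x⟩
  have := key _ (inv_mem hh) _ hx
  rwa [← pr_mul, inv_mul_cancel, pr_one] at this

theorem rev_prod : ∀ w : List ℕ, (w.reverse.map g).prod * (w.map g).prod = 1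
  | [] => by simp
  | x :: w => by
    rw [List.reverse_cons, List.map_append, List.prod_append, List.map_cons, List.prod_cons]
    simp only [List.map_cons, List.map_nil, List.prod_cons, List.prod_nil, mul_one]
    rw [mul_assoc, ← mul_assoc (g x) (g x), show g x * g x = 1 from cert.g_sq x, one_mul, rev_prod w]

theorem mem_of_fix {y : Suz} (h : pr y ⟨0, by norm_num⟩ = ⟨0, by norm_num⟩) : y ∈ H := by
  have h1 : cert.toPt (y : Suz ⧸ H) = cert.toPt ((1 : Suz) : Suz ⧸ H) := by
    rw [Cert.toPt_mk, Cert.toPt_mk, map_one, Equiv.Perm.one_apply]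
    exact h
  have h2 := Function.LeftInverse.injective cert.ofPt_toPt h1
  rw [QuotientGroup.eq, mul_one] at h2
  exact inv_inv y ▸ inv_mem h2

theorem sigH_injective : Function.Injective sigH := by
  rw [injective_iff_map_eq_one]
  intro k hk
  have horb : ∀ x : Fin 1782, SuzData.orb1.testBit x.val = true → pr k x = x := by
    intro x hx
    obtain ⟨a1, am, -⟩ := th_spec x.2 hx (show 0 < 5 by norm_num) (show 0 < 5 by norm_num)
    obtain ⟨b1, bm, -⟩ := th_spec x.2 hx (show 1 < 5 by norm_num) (show 0 < 5 by norm_num)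
    have ha := sigH_spec k ⟨_, a1⟩ x am
    have hb := sigH_spec k ⟨_, b1⟩ x bm
    rw [hk, Equiv.Perm.one_apply] at ha hb
    exact Fin.ext (((th_spec x.2 hx (show 0 < 5 by norm_num) (show 1 < 5 by norm_num)).2.2 (by norm_num)).2 _ ha hb)
  have hzero : pr k ⟨0, by norm_num⟩ = ⟨0, by norm_num⟩ := Cert.fix_base cert k.2
  have hcode : ∀ x : Fin 1782, sepCode (pr k x).val = sepCode x.val := by
    intro x
    unfold sepCode
    have hw := List.all_eq_true.1 probes_ok
    generalize hP : Data.probes = P at hw ⊢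
    clear hP
    induction P with
    | nil => rfl
    | cons w P ih =>
      rw [List.foldr_cons, List.foldr_cons, ih fun v hv => hw v (List.mem_cons_of_mem _ hv)]
      have h1 := hw w List.mem_cons_self
      simp only [Bool.and_eq_true] at h1
      set gw := (w.map g).prod
      set gi := (w.reverse.map g).prod
      have hgi : gi * gw = 1 := rev_prod w
      have hp : (pr gw ⟨0, by norm_num⟩).val = runR SuzData.T w 0 := pr_word w _
      have hfix := horb (pr gw ⟨0, by norm_num⟩) (by rw [hp]; exact h1.1)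
      have hmem : gi * k * gw ∈ H := mem_of_fix (by
        rw [pr_mul, pr_mul, hfix, ← pr_mul, hgi, pr_one])
      have hbit : probeBit w (pr k x).val = probeBit w x.val := by
        show SuzData.orb1.testBit _ = SuzData.orb1.testBit _
        rw [← pr_word w.reverse, ← pr_word w.reverse]
        rw [show pr gi (pr k x) = pr (gi * k * gw) (pr gi x) by
          rw [← pr_mul, ← pr_mul]
          congr 1
          rw [mul_assoc _ gw gi, mul_eq_one_comm.1 hgi, mul_one]]
        exact orb_maps hmem _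
      rw [hbit]
  refine Subtype.ext (H29.CosetCert.SuzOrd.injective_card.1 ?_)
  rw [OneMemClass.coe_one, map_one]
  refine Equiv.ext fun (x : Fin 1782) => ?_
  show pr k x = x
  have hcov : ∀ c : Fin 1782, c.val = 0 ∨ SuzData.orb1.testBit c.val = true ∨ c.val ∈ Data.far := fun c => by
    have h := allIn_get cover_ok c.2
    simp only [Bool.or_eq_true, Nat.beq_eq, List.any_eq_true] at h
    rcases h with (h | h) | ⟨y, hy, e⟩
    exacts [Or.inl h, Or.inr (Or.inl h), Or.inr (Or.inr (e ▸ hy))]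
  rcases hcov x with h | h | h
  · rw [show x = ⟨0, by norm_num⟩ from Fin.ext h]; exact hzero
  · exact horb x h
  · rcases hcov (pr k x) with h' | h' | h'
    · have he : pr k x = pr k ⟨0, by norm_num⟩ := (Fin.ext h').trans hzero.symm
      rw [pr_injective k he, hzero]
    · exact pr_injective k (horb _ h')
    · obtain ⟨i, hi, ei⟩ := List.getElem_of_mem h
      obtain ⟨j, hj, ej⟩ := List.getElem_of_mem h'
      rw [far_len] at hi hj
      have hil : i < Data.far.length := by rw [far_len]; exact hi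
      have hjl : j < Data.far.length := by rw [far_len]; exact hj
      have ci := allIn_get far_code hi
      have cj := allIn_get far_code hj
      simp only [Bool.and_eq_true, Nat.beq_eq] at ci cj
      have hs := fun n (hn : n < 416) => allIn_get far_sorted hn
      simp only [Bool.and_eq_true, Bool.or_eq_true, Nat.blt_eq, Nat.beq_eq] at hs
      have hmono : StrictMonoOn (fun n => Data.farCodes.getD (Data.farSrt.getD n 0) 0) (Set.Iio 416) := by
        refine strictMonoOn_of_lt_succ Set.ordConnected_Iio ?_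
        intro n _ hn hn'
        rw [Nat.succ_eq_succ, Set.mem_Iio] at hn'
        exact (hs n (Set.mem_Iio.1 hn)).2.resolve_left (by omega)
      have hcd : Data.farCodes.getD j 0 = Data.farCodes.getD i 0 := by
        rw [← ci.2, ← cj.2, List.getD_eq_getElem _ _ hil,
          List.getD_eq_getElem _ _ hjl, ei, ej]
        exact hcode x
      have := hmono.injOn (Set.mem_Iio.2 (hs j hj).1.1) (Set.mem_Iio.2 (hs i hi).1.1)
        (show Data.farCodes.getD (Data.farSrt.getD (Data.farRank.getD j 0) 0) 0 =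
          Data.farCodes.getD (Data.farSrt.getD (Data.farRank.getD i 0) 0) 0 by rw [(hs j hj).1.2, (hs i hi).1.2, hcd])
      have hij : j = i := by rw [← (hs j hj).1.2, this, (hs i hi).1.2]
      subst hij
      exact Fin.ext (ej.symm.trans ei)

theorem card_H : Nat.card H = 251596800 := by
  have h := H.card_mul_index
  rw [cert.index_eq, show cert.n = 1782 from rfl, H29.CosetCert.SuzOrd.injective_card.2] at h
  exact Nat.eq_of_mul_eq_mul_right (show 0 < 1782 by norm_num) (h.trans (by norm_num))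

theorem sigH_gen (i : Fin 6) (hi' : g i.val ∈ H) : sigH ⟨g i.val, hi'⟩ = hperm i :=
  Equiv.ext fun q => line_unique q.2 (pr_injective (g i.val)) (fun x hx => sigH_spec ⟨g i.val, hi'⟩ q x hx)
    (gen_maps i q)

theorem hperm_mem (i : Fin 6) : hperm i ∈ sigG.range := by
  have h := allIn_get words_ok i.2
  simp only [Bool.and_eq_true, List.all_eq_true, Nat.blt_eq, beq_iff_eq] at h
  refine ⟨elt (Data.words.getD i.val []), Equiv.ext fun p => ?_⟩
  obtain ⟨l, hl⟩ := (exists_line (elt (Data.words.getD i.val [])) p).choose_spec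
  have hne := psi_ne (elt (Data.words.getD i.val [])) p
  obtain ⟨q, hq, l', hl'⟩ := complete _ hne
  show (exists_line _ p).choose = hperm i p
  rw [pv_unique hne hl hl']
  refine Fin.ext (hq.trans ?_)
  have hact := allIn_get2 (p := fun i q => Nat.beq (vidx (mvc (Data.mats.getD i []) (vcode q))) (hi i q)) act_ok i.2 p.2
  rw [Nat.beq_eq] at hact
  rw [hperm_val, ← hact]
  congr 1
  rw [mvc]
  refine encV_ext fun j hj => ?_
  rw [dif_pos hj, psi_elt h.1]
  show (wm (Data.words.getD i.val []) *ᵥ pv p) ⟨j, hj⟩ = _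
  rw [wm_eq, h.2]
  exact mvc_spec _ _ _

theorem stabilizer_iso : Nonempty (H ≃* chevG2.group Q) := by
  haveI : Finite (chevG2.group Q) := Nat.finite_of_card_ne_zero (by rw [card_L]; norm_num)
  have hle : sigH.range ≤ sigG.range := by
    rintro _ ⟨h, rfl⟩
    obtain ⟨h, hh⟩ := h
    have h' := hh
    rw [gens_mem] at h'
    have key : Subgroup.closure {e | ∃ i < 6, g i = e} ≤ (sigG.range.comap sigH).map H.subtype := by
      rw [Subgroup.closure_le]
      rintro _ ⟨i, hi, rfl⟩
      have hm : g i ∈ H := gens_mem ▸ Subgroup.subset_closure ⟨i, hi, rfl⟩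
      exact ⟨⟨g i, hm⟩, Subgroup.mem_comap.2 (by rw [sigH_gen ⟨i, hi⟩ hm]; exact hperm_mem _), rfl⟩
    obtain ⟨y, hy, e⟩ := key h'
    rw [← show y = ⟨h, hh⟩ from Subtype.ext e]
    exact hy
  have hB : Nat.card sigH.range = 251596800 := by
    rw [← card_H, Nat.card_congr (MonoidHom.ofInjective sigH_injective).toEquiv]
  have hA : Nat.card sigG.range ≤ 251596800 :=
    card_L ▸ Nat.card_le_card_of_surjective _ sigG.rangeRestrict_surjective
  have heq := Subgroup.eq_of_le_of_card_ge hle (hA.trans hB.ge)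
  have hbij : Function.Bijective sigG.rangeRestrict := (Nat.bijective_iff_surjective_and_card _).2
    ⟨sigG.rangeRestrict_surjective, by rw [← heq, hB, card_L]⟩
  exact ⟨(MonoidHom.ofInjective sigH_injective).trans
    ((MulEquiv.subgroupCongr heq).trans (MulEquiv.ofBijective _ hbij).symm)⟩

end CfsgLib.SuzG2
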