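import Cfsg.Agent.H29.CosetCert.Suz.Cert
import Cfsg.Agent.G2Four.Field
import Cfsg.Agent.SuzG2.Data

/-!
Kernel checks for the action of the point stabiliser of `Suz` on 1365 lines.
-/

set_option autoImplicit false
set_option maxRecDepth 100000
set_option Elab.async false

namespace CfsgLib.SuzG2

open H29.CosetCert CfsgLib.G2Four

/-- A point of a line. -/
def cl (q l : ℕ) : ℕ := pick Data.clT (5 * q + l)
/-- A line through a point. -/
def th (c l : ℕ) : ℕ := pick Data.thrT (5 * c + l)
/-- A permutation of lines. -/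
def hi (i q : ℕ) : ℕ := pick Data.imgT (1365 * i + q)
/-- A vector code. -/
def vcode (q : ℕ) : ℕ := pick Data.vecT q
/-- The index of a vector. -/
def vidx (c : ℕ) : ℕ := pick Data.idxT c

/-- Incidence. -/
def memC (q x : ℕ) : Bool :=
  Nat.beq (cl q 0) x || Nat.beq (cl q 1) x || Nat.beq (cl q 2) x || Nat.beq (cl q 3) x || Nat.beq (cl q 4) x

theorem cl_ok : allIn (fun q => allIn (fun l => Nat.blt (cl q l) 1782 && SuzData.orb1.testBit (cl q l) &&
    allIn (fun m => Nat.beq (th (cl q l) m) q) 0 0 &&
    (Nat.beq (th (cl q l) 0) q || Nat.beq (th (cl q l) 1) q || Nat.beq (th (cl q l) 2) q ||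
      Nat.beq (th (cl q l) 3) q || Nat.beq (th (cl q l) 4) q)) 0 5 && !(Nat.beq (cl q 0) (cl q 1))) 0 1365 = true := by
  decide +kernel

theorem img_ok : allIn (fun i => allIn (fun q => Nat.blt (hi i q) 1365 &&
    allIn (fun l => memC (hi i q) (SuzData.T i (cl q l))) 0 5) 0 1365) 0 6 = true := by decide +kernel

theorem img_sq : allIn (fun i => allIn (fun q => Nat.beq (hi i (hi i q)) q) 0 1365) 0 6 = true := by decide +kernel

theorem th_ok : allIn (fun c => bif SuzData.orb1.testBit c then
    allIn (fun l => Nat.blt (th c l) 1365 && memC (th c l) c && allIn (fun m => Nat.beq l m ||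
      (!(Nat.beq (th c l) (th c m)) && allIn (fun k => Nat.beq (cl (th c l) k) c ||
        !(memC (th c m) (cl (th c l) k))) 0 5)) 0 5) 0 5
    else true) 0 1782 = true := by decide +kernel

/-- A bit of the code of a far point. -/
def probeBit (w : List ℕ) (x : ℕ) : Bool := SuzData.orb1.testBit (runR SuzData.T w.reverse x)

/-- The code of a point. -/
def sepCode (x : ℕ) : ℕ := Data.probes.foldr (fun w r => (bif probeBit w x then 1 else 0) + 2 * r) 0

theorem probes_ok : (Data.probes.all fun w => SuzData.orb1.testBit (runR SuzData.T w 0) &&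
    w.all fun x => Nat.blt x 7) = true := by decide +kernel

theorem far_code : allIn (fun n => Nat.blt (Data.far.getD n 0) 1782 &&
    Nat.beq (sepCode (Data.far.getD n 0)) (Data.farCodes.getD n 0)) 0 416 = true := by decide +kernel

theorem far_sorted : allIn (fun n => Nat.blt (Data.farRank.getD n 0) 416 &&
    Nat.beq (Data.farSrt.getD (Data.farRank.getD n 0) 0) n && (Nat.beq n 415 ||
      Nat.blt (Data.farCodes.getD (Data.farSrt.getD n 0) 0) (Data.farCodes.getD (Data.farSrt.getD (n + 1) 0) 0))) 0 416 =
    true := by decide +kernel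

theorem far_len : Data.far.length = 416 := by decide +kernel

theorem cover_ok : allIn (fun c => Nat.beq c 0 || SuzData.orb1.testBit c ||
    Data.far.any fun x => Nat.beq x c) 0 1782 = true := by decide +kernel

theorem gens_eq : SuzData.S = [[0], [1], [2], [3], [4], [5]] := by decide +kernel

/-! ### The matrix side -/

/-- Digit to element. -/
def ofN : ℕ → Q
  | 1 => .e
  | 2 => .a
  | 3 => .b
  | _ => .z

/-- Element to digit. -/
def toN : Q → ℕ
  | .z => 0
  | .e => 1
  | .a => 2
  | .b => 3

/-- A coordinate of a coded vector. -/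
def dig (c j : ℕ) : Q := ofN (c / 4 ^ j % 4)

/-- The code of six coordinates. -/
def encV (w : ℕ → Q) : ℕ :=
  toN (w 0) + 4 * toN (w 1) + 16 * toN (w 2) + 64 * toN (w 3) + 256 * toN (w 4) + 1024 * toN (w 5)

/-- A row times a coded vector. -/
def dotQ (r : List Q) (c : ℕ) : Q :=
  r.getD 0 0 * dig c 0 + r.getD 1 0 * dig c 1 + r.getD 2 0 * dig c 2 + r.getD 3 0 * dig c 3 +
    r.getD 4 0 * dig c 4 + r.getD 5 0 * dig c 5

/-- A matrix times a coded vector. -/
def mvc (R : List (List Q)) (c : ℕ) : ℕ := encV fun i => dotQ (R.getD i []) c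

theorem vec_ok : allIn (fun q => !(Nat.beq (vcode q) 0) && Nat.blt (vcode q) 4096 &&
    [Q.e, Q.a, Q.b].all fun l => Nat.beq (vidx (encV fun j => l * dig (vcode q) j)) q) 0 1365 = true := by
  decide +kernel

theorem complete_ok : allIn (fun c => Nat.beq c 0 || (Nat.blt (vidx c) 1365 &&
    [Q.e, Q.a, Q.b].any fun l => allIn (fun j => dig c j == l * dig (vcode (vidx c)) j) 0 6)) 0 4096 = true := by
  decide +kernel

theorem act_ok : allIn (fun i => allIn (fun q => Nat.beq (vidx (mvc (Data.mats.getD i []) (vcode q))) (hi i q)) 0 1365)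
    0 6 = true := by decide +kernel

end CfsgLib.SuzG2
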