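import Cfsg.Agent.SuzG2.Checks
import Cfsg.Agent.G2Four.Graph

/-!
The action of `G₂(4)` on 1365 lines of the six dimensional module.
-/

set_option autoImplicit false
set_option maxRecDepth 100000
set_option Elab.async false

namespace CfsgLib.SuzG2

open H29.CosetCert CfsgLib.G2Four Cfsg.Lie Matrix

/-! ### The matrix side -/

/-- The rows of a root element. -/
def mrR (r : ℕ) (t : Q) : List (List Q) := List.ofFn fun i => List.ofFn fun j => mr r t i j

/-- Product of lists of rows. -/
def mulR (A B : List (List Q)) : List (List Q) :=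
  (List.range 6).map fun i => (List.range 6).map fun j =>
    (A.getD i []).getD 0 0 * (B.getD 0 []).getD j 0 + (A.getD i []).getD 1 0 * (B.getD 1 []).getD j 0 +
      (A.getD i []).getD 2 0 * (B.getD 2 []).getD j 0 + (A.getD i []).getD 3 0 * (B.getD 3 []).getD j 0 +
      (A.getD i []).getD 4 0 * (B.getD 4 []).getD j 0 + (A.getD i []).getD 5 0 * (B.getD 5 []).getD j 0

/-- The rows of the identity. -/
def oneR : List (List Q) := List.ofFn fun i : Fin 6 => List.ofFn fun j : Fin 6 => if i = j then Q.e else Q.z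

/-- The rows of a word. -/
def wmR : List (ℕ × Q) → List (List Q)
  | [] => oneR
  | p :: w => mulR (mrR p.1 p.2) (wmR w)

theorem words_ok : allIn (fun i => (Data.words.getD i []).all (fun p => Nat.blt p.1 12) &&
    wmR (Data.words.getD i []) == Data.mats.getD i []) 0 6 = true := by decide +kernel

/-- A matrix from rows. -/
theorem ofRows_apply (R : List (List Q)) (i j : Fin 6) : ofRows R i j = (R.getD i.val []).getD j.val 0 := rfl

theorem ofRows_mulR (A B : List (List Q)) : ofRows (mulR A B) = ofRows A * ofRows B := by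
  ext i j
  rw [Matrix.mul_apply, Fin.sum_univ_six, ofRows_apply]
  simp [mulR, ofRows_apply, List.getD_eq_getElem?_getD]

theorem ofRows_mrR (r : ℕ) (t : Q) : ofRows (mrR r t) = mr r t := by
  ext i j
  fin_cases i <;> fin_cases j <;> rfl

theorem ofRows_oneR : ofRows oneR = 1 := by
  ext i j
  rw [Matrix.one_apply, ofRows_apply]
  revert i j
  decide +kernel

theorem wm_eq : ∀ w : List (ℕ × Q), wm w = ofRows (wmR w)
  | [] => by rw [wmR, ofRows_oneR]; rfl
  | p :: w => by rw [wmR, ofRows_mulR, ofRows_mrR, ← wm_eq w]; simp [wm]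

/-- A coded vector. -/
def dv (c : ℕ) : Fin 6 → Q := fun j => dig c j.val

theorem mvc_spec (R : List (List Q)) (c : ℕ) (i : Fin 6) : (ofRows R *ᵥ dv c) i = dotQ (R.getD i.val []) c := by
  simp [Matrix.mulVec, dotProduct, Fin.sum_univ_six, ofRows_apply, dv, dotQ]

theorem ofN_toN (x : Q) : ofN (toN x) = x := by cases x <;> rfl

theorem toN_lt (x : Q) : toN x < 4 := by cases x <;> decide

theorem dv_encV (w : ℕ → Q) : dv (encV w) = fun j => w j.val := by
  funext j
  have := toN_lt (w 0); have := toN_lt (w 1); have := toN_lt (w 2)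
  have := toN_lt (w 3); have := toN_lt (w 4); have := toN_lt (w 5)
  have key : encV w / 4 ^ j.val % 4 = toN (w j.val) := by
    fin_cases j <;> simp only [encV] <;> norm_num <;> omega
  rw [dv, dig, key, ofN_toN]

theorem encV_lt (w : ℕ → Q) : encV w < 4096 := by
  have := toN_lt (w 0); have := toN_lt (w 1); have := toN_lt (w 2)
  have := toN_lt (w 3); have := toN_lt (w 4); have := toN_lt (w 5)
  simp only [encV]
  omega

theorem encV_ext {w w' : ℕ → Q} (h : ∀ j < 6, w j = w' j) : encV w = encV w' := by
  simp only [encV, h 0 (by norm_num), h 1 (by norm_num), h 2 (by norm_num), h 3 (by norm_num), h 4 (by norm_num),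
    h 5 (by norm_num)]

theorem nonzero_cases {l : Q} (h : l ≠ 0) : l ∈ [Q.e, Q.a, Q.b] := by
  revert h; revert l; decide

theorem allIn_get2 {p : ℕ → ℕ → Bool} {n m i j : ℕ} (h : allIn (fun i => allIn (p i) 0 n) 0 m = true) (hi : i < m)
    (hj : j < n) : p i j = true :=
  (allIn_iff (p i) n 0).1 ((allIn_iff _ m 0).1 h i (Nat.zero_le _) (by omega)) j (Nat.zero_le _) (by omega)

theorem allIn_get {p : ℕ → Bool} {n i : ℕ} (h : allIn p 0 n = true) (hi : i < n) : p i = true :=
  (allIn_iff p n 0).1 h i (Nat.zero_le _) (by omega)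

/-- The vector of a line number. -/
def pv (q : Fin 1365) : Fin 6 → Q := dv (vcode q)

theorem enc_dv (w : Fin 6 → Q) : dv (encV fun j => if h : j < 6 then w ⟨j, h⟩ else 0) = w := by
  rw [dv_encV]
  funext j
  rw [dif_pos j.2]

theorem complete (w : Fin 6 → Q) (hw : w ≠ 0) :
    ∃ q : Fin 1365, q.val = vidx (encV fun j => if h : j < 6 then w ⟨j, h⟩ else 0) ∧ ∃ l : Q, w = l • pv q := by
  set c := encV fun j => if h : j < 6 then w ⟨j, h⟩ else 0 with hc
  have h := allIn_get complete_ok (encV_lt _ : c < 4096)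
  simp only [Bool.or_eq_true, Bool.and_eq_true, Nat.beq_eq, Nat.blt_eq, List.any_eq_true] at h
  rcases h with h | ⟨hlt, l, -, hl⟩
  · exfalso
    apply hw
    rw [← enc_dv w, show (encV fun j => if h : j < 6 then w ⟨j, h⟩ else 0) = 0 from h]
    funext j
    fin_cases j <;> rfl
  · refine ⟨⟨_, hlt⟩, rfl, l, ?_⟩
    funext j
    have h1 := allIn_get hl j.2
    rw [beq_iff_eq] at h1
    rw [show w j = dv c j by rw [hc, enc_dv]]
    exact h1

theorem pv_unique {w : Fin 6 → Q} (hw : w ≠ 0) {p q : Fin 1365} {a b : Q} (h1 : w = a • pv p) (h2 : w = b • pv q) :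
    p = q := by
  have key : ∀ (p : Fin 1365) (a : Q), w = a • pv p → p.val = vidx (encV fun j => if h : j < 6 then w ⟨j, h⟩ else 0) := by
    intro p a h
    have ha : a ≠ 0 := fun e => hw (by rw [h, e, zero_smul])
    have h' := allIn_get vec_ok p.2
    simp only [Bool.and_eq_true, List.all_eq_true, Nat.beq_eq] at h'
    rw [← h'.2 a (nonzero_cases ha)]
    congr 1
    refine encV_ext fun j hj => ?_
    rw [dif_pos hj, h]
    rfl
  exact Fin.ext ((key p a h1).trans (key q b h2).symm)

theorem psi_ne (g : chevG2.group Q) (p : Fin 1365) : (psi g : M6) *ᵥ pv p ≠ 0 := by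
  intro h
  have h1 : pv p = 0 := by
    have := congrArg ((↑(psi g)⁻¹ : M6) *ᵥ ·) h
    simpa [Matrix.mulVec_mulVec] using this
  have h' := allIn_get vec_ok p.2
  simp only [Bool.and_eq_true, List.all_eq_true, Nat.beq_eq, Bool.not_eq_true', Nat.blt_eq] at h'
  have h0 := h'.2 Q.e (by simp)
  have he : (encV fun j => Q.e * dig (vcode p) j) = 0 := by
    have hz : ∀ j, j < 6 → Q.e * dig (vcode p) j = 0 := fun j hj => by
      have := congrFun h1 ⟨j, hj⟩
      show Q.e * dig (vcode p) j = 0
      rw [show dig (vcode p) j = 0 from this]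
      rfl
    rw [encV_ext hz]
    rfl
  rw [he] at h0
  have hz : vcode p.val = 0 := by
    have hd : ∀ j, j < 6 → vcode p.val / 4 ^ j % 4 = 0 := fun j hj => by
      have h2 : dig (vcode p.val) j = Q.z := congrFun h1 ⟨j, hj⟩
      have h3 : vcode p.val / 4 ^ j % 4 < 4 := Nat.mod_lt _ (by norm_num)
      revert h2 h3
      unfold dig
      generalize vcode p.val / 4 ^ j % 4 = n
      intro h2 h3
      interval_cases n <;> simp_all [ofN]
    have := hd 0 (by norm_num); have := hd 1 (by norm_num); have := hd 2 (by norm_num)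
    have := hd 3 (by norm_num); have := hd 4 (by norm_num); have := hd 5 (by norm_num)
    have := h'.1.2
    norm_num at *
    omega
  rw [hz, Nat.beq_refl] at h'
  exact Bool.noConfusion h'.1.1

theorem exists_line (g : chevG2.group Q) (p : Fin 1365) :
    ∃ q : Fin 1365, ∃ l : Q, (psi g : M6) *ᵥ pv p = l • pv q := by
  obtain ⟨q, -, hq⟩ := complete _ (psi_ne g p)
  exact ⟨q, hq⟩

/-- The action of `G₂(4)` on the 1365 points. -/
noncomputable def sigG : chevG2.group Q →* Equiv.Perm (Fin 1365) :=
  MonoidHom.toHomPerm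
    { toFun := fun g => (fun p => (exists_line g p).choose : Function.End (Fin 1365))
      map_one' := funext fun p => by
        obtain ⟨l, hl⟩ := (exists_line 1 p).choose_spec
        refine (pv_unique (psi_ne 1 p) (a := 1) ?_ hl).symm
        rw [map_one, Units.val_one, Matrix.one_mulVec, one_smul]
        rfl
      map_mul' := fun g h => funext fun p => by
        obtain ⟨l1, hl1⟩ := (exists_line h p).choose_spec
        obtain ⟨l2, hl2⟩ := (exists_line g (exists_line h p).choose).choose_spec
        obtain ⟨l, hl⟩ := (exists_line (g * h) p).choose_spec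
        refine pv_unique (psi_ne (g * h) p) hl (b := l1 * l2) ?_
        rw [map_mul, Units.val_mul, ← Matrix.mulVec_mulVec, hl1, Matrix.mulVec_smul, hl2, smul_smul]
        rfl }

end CfsgLib.SuzG2
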